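import Mathlib

set_option autoImplicit false
set_option linter.deprecated false

namespace Cfsg.Agent.Lib.Helper83.X27

section Grp

variable {G : Type*} [Group G]

theorem comm_mem_center_of_card27 (hG : Nat.card G = 27) (hna : ¬ ∀ a b : G, a * b = b * a)
    (a b : G) : a * b * a⁻¹ * b⁻¹ ∈ Subgroup.center G := by
  haveI : Finite G := Nat.finite_of_card_ne_zero (by rw [hG]; norm_num)
  haveI : Fact (Nat.Prime 3) := ⟨Nat.prime_three⟩
  have hp : IsPGroup 3 G := IsPGroup.of_card (n := 3) (by rw [hG]; norm_num)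
  haveI : Nontrivial G := by
    rw [← Finite.one_lt_card_iff_nontrivial, hG]; norm_num
  haveI hnt : Nontrivial (Subgroup.center G) := hp.center_nontrivial
  have hdvd : Nat.card (Subgroup.center G) ∣ 27 := by
    rw [← hG]; exact Subgroup.card_subgroup_dvd_card _
  have hidx : Nat.card (G ⧸ Subgroup.center G) * Nat.card (Subgroup.center G) = 27 := by
    rw [← hG]; exact (Subgroup.card_eq_card_quotient_mul_card_subgroup _).symm
  obtain ⟨k, hk, hk'⟩ := (Nat.dvd_prime_pow Nat.prime_three).mp
    (show Nat.card (Subgroup.center G) ∣ 3 ^ 3 from hdvd)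
  interval_cases k
  · exfalso
    have := Finite.one_lt_card_iff_nontrivial.mpr hnt
    omega
  · have h9 : Nat.card (G ⧸ Subgroup.center G) = 3 ^ 2 := by rw [hk'] at hidx; omega
    have hcomm := IsPGroup.commutative_of_card_eq_prime_sq h9
    rw [← QuotientGroup.eq_one_iff]
    have h := hcomm (QuotientGroup.mk a) (QuotientGroup.mk b)
    rw [QuotientGroup.mk_mul, QuotientGroup.mk_mul, QuotientGroup.mk_mul, QuotientGroup.mk_inv,
      QuotientGroup.mk_inv, h]
    group
  · exfalso
    have h3 : Nat.card (G ⧸ Subgroup.center G) = 3 := by rw [hk'] at hidx; omega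
    haveI := isCyclic_of_prime_card h3
    apply hna
    exact commutative_of_cyclic_center_quotient (QuotientGroup.mk' (Subgroup.center G)) (by simp)
  · exfalso
    apply hna
    have htop : Subgroup.center G = ⊤ := (Subgroup.card_eq_iff_eq_top _).mp (by rw [hG]; exact hk')
    intro x y
    have hx : x ∈ Subgroup.center G := htop ▸ Subgroup.mem_top x
    exact (Subgroup.mem_center_iff.mp hx y).symm

theorem closure_pair_eq_top_of_card27 (hG : Nat.card G = 27) (a b : G) (hab : a * b ≠ b * a) :
    Subgroup.closure {a, b} = ⊤ := by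
  haveI : Finite G := Nat.finite_of_card_ne_zero (by rw [hG]; norm_num)
  haveI : Fact (Nat.Prime 3) := ⟨Nat.prime_three⟩
  obtain ⟨H, hH⟩ : ∃ H : Subgroup G, H = Subgroup.closure {a, b} := ⟨_, rfl⟩
  have haH : a ∈ H := hH ▸ Subgroup.subset_closure (by simp)
  have hbH : b ∈ H := hH ▸ Subgroup.subset_closure (by simp)
  rw [← hH]
  have hdvd : Nat.card H ∣ 27 := by
    rw [← hG]; exact Subgroup.card_subgroup_dvd_card _
  obtain ⟨k, hk, hk'⟩ := (Nat.dvd_prime_pow Nat.prime_three).mp
    (show Nat.card H ∣ 3 ^ 3 from hdvd)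
  have hcomm_of : (∀ x y : H, x * y = y * x) → False := by
    intro h
    apply hab
    have := h ⟨a, haH⟩ ⟨b, hbH⟩
    exact congrArg Subtype.val this
  interval_cases k
  · exfalso; apply hcomm_of
    haveI : Subsingleton H := (Nat.card_eq_one_iff_unique.mp hk').1
    intro x y; rw [Subsingleton.elim x y]
  · exfalso; apply hcomm_of
    haveI := isCyclic_of_prime_card (α := H) (p := 3) (by rw [hk']; norm_num)
    exact commutative_of_cyclic_center_quotient (MonoidHom.id H) (by simp)
  · exfalso; apply hcomm_of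
    exact IsPGroup.commutative_of_card_eq_prime_sq hk'
  · exact (Subgroup.card_eq_iff_eq_top _).mp (by rw [hG]; exact hk')

end Grp

end Cfsg.Agent.Lib.Helper83.X27
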