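import Cfsg.Agent.Lib.Helper83.X27.Frame
import Cfsg.Agent.Lib.Helper83.X27.Grp27

set_option autoImplicit false
open scoped MatrixGroups

namespace Cfsg.Agent.Lib.Helper83.X27

variable {F : Type*} [Field F]

/-- Normal form of a non-abelian subgroup of order 27 and exponent 3 of `GL_3(F)`, when `F`
contains a primitive cube root of unity `w0`: in a suitable basis (columns of `g`) it is
generated by `diag(1, l, l²)` and the cyclic shift, with `l` a primitive cube root of unity. -/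
theorem frame27 (R : Subgroup (GL (Fin 3) F)) (hR : Nat.card R = 27)
    (hRe : Monoid.exponent R = 3) (hRna : ¬ IsMulCommutative R)
    (w0 : F) (hw : w0 ^ 2 + w0 + 1 = 0) (hw1 : w0 ≠ 1) :
    ∃ (l : F) (g a b : GL (Fin 3) F), l ^ 2 + l + 1 = 0 ∧ l ≠ 1 ∧ a ∈ R ∧ b ∈ R ∧
      Subgroup.closure {a, b} = R ∧
      (a : Matrix (Fin 3) (Fin 3) F) * (g : Matrix (Fin 3) (Fin 3) F) =
        (g : Matrix (Fin 3) (Fin 3) F) * diagA l ∧
      (b : Matrix (Fin 3) (Fin 3) F) * (g : Matrix (Fin 3) (Fin 3) F) =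
        (g : Matrix (Fin 3) (Fin 3) F) * shiftB ∧
      ((a * b * a⁻¹ * b⁻¹ : GL (Fin 3) F) : Matrix (Fin 3) (Fin 3) F) =
        l • (1 : Matrix (Fin 3) (Fin 3) F) := by
  have hna : ¬ ∀ a b : R, a * b = b * a := fun h => hRna ⟨⟨h⟩⟩
  obtain ⟨a, b, hab⟩ : ∃ a b : R, a * b ≠ b * a := by
    by_contra h; push Not at h; exact hna h
  have hzc := comm_mem_center_of_card27 hR hna a b
  have hcl := closure_pair_eq_top_of_card27 hR a b hab
  have ha3 : a ^ 3 = 1 := by
    have h := Monoid.pow_exponent_eq_one a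
    rw [hRe] at h; exact h
  have hb3 : b ^ 3 = 1 := by
    have h := Monoid.pow_exponent_eq_one b
    rw [hRe] at h; exact h
  obtain ⟨z, hz⟩ : ∃ z : R, z = a * b * a⁻¹ * b⁻¹ := ⟨_, rfl⟩
  rw [← hz] at hzc
  have hz3 : z ^ 3 = 1 := by
    have h := Monoid.pow_exponent_eq_one z
    rw [hRe] at h; exact h
  have hz1 : z ≠ 1 := by
    intro h; apply hab
    rw [h] at hz
    have h' : a * b * a⁻¹ * b⁻¹ * (b * a) = b * a := by rw [← hz, one_mul]
    rw [← h']; group
  have hzab : a * b = z * b * a := by rw [hz]; group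
  have hza : z * a = a * z := (Subgroup.mem_center_iff.mp hzc a).symm
  have hzb : z * b = b * z := (Subgroup.mem_center_iff.mp hzc b).symm
  obtain ⟨φ, hφ⟩ : ∃ φ : R →* Matrix (Fin 3) (Fin 3) F,
      ∀ x : R, φ x = ((x : GL (Fin 3) F) : Matrix (Fin 3) (Fin 3) F) :=
    ⟨(Units.coeHom _).comp R.subtype, fun _ => rfl⟩
  have hφinj : Function.Injective φ := by
    intro x y h
    apply Subtype.ext
    apply Units.ext
    rw [← hφ, ← hφ]; exact h
  obtain ⟨l, g, hl, hl1, hg, h1, h2, h3⟩ := matrix_frame (φ a) (φ b) (φ z)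
    (by rw [← map_mul, ← map_mul, ← pow_three', ha3, map_one])
    (by rw [← map_mul, ← map_mul, ← pow_three', hb3, map_one])
    (by rw [← map_mul, ← map_mul, ← pow_three', hz3, map_one])
    (by intro h; apply hz1; apply hφinj; rw [h, map_one])
    (by rw [← map_mul, ← map_mul, ← map_mul, hzab])
    (by rw [← map_mul, ← map_mul, hza])
    (by rw [← map_mul, ← map_mul, hzb]) w0 hw hw1
  refine ⟨l, hg.unit, a, b, hl, hl1, a.2, b.2, ?_, ?_, ?_, ?_⟩
  · have hmap : (Subgroup.closure ({a, b} : Set R)).map R.subtype =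
        Subgroup.closure {(a : GL (Fin 3) F), (b : GL (Fin 3) F)} := by
      rw [MonoidHom.map_closure]; congr 1; simp [Set.image_pair]
    rw [← hmap, hcl, ← MonoidHom.range_eq_map, Subgroup.range_subtype]
  · rw [hg.unit_spec, ← hφ]; exact h1
  · rw [hg.unit_spec, ← hφ]; exact h2
  · rw [hφ, hz] at h3
    exact h3

end Cfsg.Agent.Lib.Helper83.X27
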