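import Mathlib

set_option autoImplicit false
open scoped MatrixGroups

namespace Cfsg.Agent.Lib.Helper83.X27

section Abstract

variable {F V : Type*} [Field F] [AddCommGroup V] [Module F V]

theorem exists_eigen_ne_one (Z : V →ₗ[F] V)
    (hZ3 : ∀ x, Z (Z (Z x)) = x) (hZ1 : ∃ x, Z x ≠ x) (w0 : F) (hw : w0 ^ 2 + w0 + 1 = 0)
    (hw1 : w0 ≠ 1) :
    ∃ l : F, l ^ 2 + l + 1 = 0 ∧ l ≠ 1 ∧ ∃ v : V, v ≠ 0 ∧ Z v = l • v := by
  obtain ⟨u, hu⟩ := hZ1
  by_cases h1 : Z (Z u - u) = w0 ^ 2 • (Z u - u)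
  · refine ⟨w0 ^ 2, ?_, ?_, Z u - u, sub_ne_zero.mpr hu, h1⟩
    · linear_combination (w0 ^ 2 - w0 + 1) * hw
    · intro h
      apply hw1
      linear_combination (w0 - 1) * hw - w0 * h
  · refine ⟨w0, hw, hw1, Z (Z u - u) - w0 ^ 2 • (Z u - u), sub_ne_zero.mpr h1, ?_⟩
    simp only [map_sub, map_smul, hZ3]
    linear_combination (norm := module) hw • (-(w0 - 1) • u + w0 • Z u - Z (Z u))

theorem exists_common_eigen (Z A : V →ₗ[F] V) (hA3 : ∀ x, A (A (A x)) = x)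
    (hZA : ∀ x, Z (A x) = A (Z x))
    (l : F) (hl : l ^ 2 + l + 1 = 0) (v : V) (hv : v ≠ 0) (hZv : Z v = l • v) :
    ∃ (al : F) (v' : V), (al = 1 ∨ al = l ∨ al = l ^ 2) ∧ v' ≠ 0 ∧ Z v' = l • v' ∧
      A v' = al • v' := by
  by_cases h1 : A v = v
  · exact ⟨1, v, Or.inl rfl, hv, hZv, by rw [h1, one_smul]⟩
  by_cases h2 : A (A v - v) = l • (A v - v)
  · refine ⟨l, A v - v, Or.inr (Or.inl rfl), sub_ne_zero.mpr h1, ?_, h2⟩
    rw [map_sub, hZA, hZv, map_smul, smul_sub]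
  · refine ⟨l ^ 2, A (A v - v) - l • (A v - v), Or.inr (Or.inr rfl), sub_ne_zero.mpr h2, ?_, ?_⟩
    · simp only [map_sub, map_smul, hZA, hZv]
      module
    · simp only [map_sub, map_smul, hA3]
      linear_combination (norm := module) hl • (-(l - 1) • v + l • A v - A (A v))

theorem exists_fixed_eigen (Z A B : V →ₗ[F] V) (hB3 : ∀ x, B (B (B x)) = x)
    (hAB : ∀ x, A (B x) = Z (B (A x))) (hZB : ∀ x, Z (B x) = B (Z x))
    (l : F) (hl : l ^ 2 + l + 1 = 0) (al : F) (hal : al = 1 ∨ al = l ∨ al = l ^ 2)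
    (v : V) (hv : v ≠ 0) (hZv : Z v = l • v) (hAv : A v = al • v) :
    ∃ v0 : V, v0 ≠ 0 ∧ Z v0 = l • v0 ∧ A v0 = v0 := by
  have hBinj : ∀ x, B x = 0 → x = 0 := by
    intro x hx
    have h := hB3 x
    rw [hx, map_zero, map_zero] at h
    exact h.symm
  have hl3 : l ^ 3 = 1 := by linear_combination (l - 1) * hl
  have step : ∀ (x : V) (c : F), Z x = l • x → A x = c • x →
      Z (B x) = l • B x ∧ A (B x) = (c * l) • B x := by
    intro x c hZx hAx
    refine ⟨by rw [hZB, hZx, map_smul], ?_⟩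
    rw [hAB, hAx, map_smul, map_smul, hZB, hZx, map_smul, smul_smul]
  rcases hal with h | h | h
  · exact ⟨v, hv, hZv, by rw [hAv, h, one_smul]⟩
  · obtain ⟨h1, h2⟩ := step v _ hZv hAv
    obtain ⟨h3, h4⟩ := step (B v) _ h1 h2
    refine ⟨B (B v), fun h' => hv (hBinj _ (hBinj _ h')), h3, ?_⟩
    have e : al * l * l = 1 := by rw [h]; linear_combination hl3
    rw [h4, e, one_smul]
  · obtain ⟨h1, h2⟩ := step v _ hZv hAv
    refine ⟨B v, fun h' => hv (hBinj _ h'), h1, ?_⟩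
    have e : al * l = 1 := by rw [h]; linear_combination hl3
    rw [h2, e, one_smul]

theorem frame_data (Z A B : V →ₗ[F] V)
    (hAB : ∀ x, A (B x) = Z (B (A x))) (hZB : ∀ x, Z (B x) = B (Z x))
    (l : F) (hl : l ^ 2 + l + 1 = 0) (hl1 : l ≠ 1)
    (v0 : V) (hv0 : v0 ≠ 0) (hZv : Z v0 = l • v0) (hAv : A v0 = v0)
    (hBinj : ∀ x, B x = 0 → x = 0) :
    A (B v0) = l • B v0 ∧ A (B (B v0)) = l ^ 2 • B (B v0) ∧ Z (B v0) = l • B v0 ∧
      Z (B (B v0)) = l • B (B v0) ∧ LinearIndependent F ![v0, B v0, B (B v0)] := by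
  have step : ∀ (x : V) (c : F), Z x = l • x → A x = c • x →
      Z (B x) = l • B x ∧ A (B x) = (c * l) • B x := by
    intro x c hZx hAx
    refine ⟨by rw [hZB, hZx, map_smul], ?_⟩
    rw [hAB, hAx, map_smul, map_smul, hZB, hZx, map_smul, smul_smul]
  obtain ⟨h1, h2⟩ := step v0 1 hZv (by rw [hAv, one_smul])
  obtain ⟨h3, h4⟩ := step (B v0) _ h1 h2
  rw [one_mul] at h2 h4
  have h4' : A (B (B v0)) = l ^ 2 • B (B v0) := by rw [h4, pow_two]
  refine ⟨h2, h4', h1, h3, ?_⟩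
  have h12 : l ^ 2 ≠ 1 := by
    intro h; apply hl1; linear_combination (l - 1) * hl - l * h
  have hll : l ^ 2 ≠ l := by
    intro h; apply hl1; linear_combination (l - 1) * hl - (l + 1) * h
  have hinj : Function.Injective ![1, l, l ^ 2] := by
    intro i j hij
    fin_cases i <;> fin_cases j <;>
      first
      | rfl
      | exact (hl1 hij).elim
      | exact (hl1 hij.symm).elim
      | exact (h12 hij).elim
      | exact (h12 hij.symm).elim
      | exact (hll hij).elim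
      | exact (hll hij.symm).elim
  refine Module.End.eigenvectors_linearIndependent' A ![1, l, l ^ 2] hinj _ ?_
  intro i
  rw [Module.End.hasEigenvector_iff, Module.End.mem_eigenspace_iff]
  fin_cases i
  · exact ⟨by simpa using hAv, by simpa using hv0⟩
  · exact ⟨by simpa using h2, by simpa using fun h => hv0 (hBinj _ h)⟩
  · exact ⟨by simpa using h4', by simpa using fun h => hv0 (hBinj _ (hBinj _ h))⟩

end Abstract

section Mat

variable {F : Type*} [Field F]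

/-- the diagonal matrix `diag(1, w, w²)` -/
def diagA (w : F) : Matrix (Fin 3) (Fin 3) F := Matrix.diagonal ![1, w, w ^ 2]

/-- the cyclic shift `e₀ ↦ e₁ ↦ e₂ ↦ e₀` -/
def shiftB : Matrix (Fin 3) (Fin 3) F := !![0, 0, 1; 1, 0, 0; 0, 1, 0]

theorem matrix_frame (a b z : Matrix (Fin 3) (Fin 3) F) (ha : a * a * a = 1)
    (hb : b * b * b = 1) (hz : z * z * z = 1) (hz1 : z ≠ 1)
    (hab : a * b = z * b * a) (hza : z * a = a * z) (hzb : z * b = b * z)
    (w0 : F) (hw : w0 ^ 2 + w0 + 1 = 0) (hw1 : w0 ≠ 1) :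
    ∃ (l : F) (g : Matrix (Fin 3) (Fin 3) F), l ^ 2 + l + 1 = 0 ∧ l ≠ 1 ∧ IsUnit g ∧
      a * g = g * diagA l ∧ b * g = g * shiftB ∧ z = l • (1 : Matrix (Fin 3) (Fin 3) F) := by
  have hZ3 : ∀ x, z.mulVecLin (z.mulVecLin (z.mulVecLin x)) = x := by
    intro x
    simp only [Matrix.mulVecLin_apply, Matrix.mulVec_mulVec]
    rw [← mul_assoc, hz, Matrix.one_mulVec]
  have hA3 : ∀ x, a.mulVecLin (a.mulVecLin (a.mulVecLin x)) = x := by
    intro x
    simp only [Matrix.mulVecLin_apply, Matrix.mulVec_mulVec]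
    rw [← mul_assoc, ha, Matrix.one_mulVec]
  have hB3 : ∀ x, b.mulVecLin (b.mulVecLin (b.mulVecLin x)) = x := by
    intro x
    simp only [Matrix.mulVecLin_apply, Matrix.mulVec_mulVec]
    rw [← mul_assoc, hb, Matrix.one_mulVec]
  have hZ1 : ∃ x, z.mulVecLin x ≠ x := by
    by_contra h
    push Not at h
    apply hz1
    apply Matrix.mulVec_injective
    funext x
    rw [Matrix.one_mulVec]
    exact h x
  have hZA : ∀ x, z.mulVecLin (a.mulVecLin x) = a.mulVecLin (z.mulVecLin x) := by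
    intro x
    simp only [Matrix.mulVecLin_apply, Matrix.mulVec_mulVec]
    rw [hza]
  have hZB : ∀ x, z.mulVecLin (b.mulVecLin x) = b.mulVecLin (z.mulVecLin x) := by
    intro x
    simp only [Matrix.mulVecLin_apply, Matrix.mulVec_mulVec]
    rw [hzb]
  have hAB : ∀ x, a.mulVecLin (b.mulVecLin x) = z.mulVecLin (b.mulVecLin (a.mulVecLin x)) := by
    intro x
    simp only [Matrix.mulVecLin_apply, Matrix.mulVec_mulVec]
    rw [hab, mul_assoc]
  obtain ⟨l, hl, hl1, v, hv, hZv⟩ := exists_eigen_ne_one z.mulVecLin hZ3 hZ1 w0 hw hw1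
  obtain ⟨al, v', hal, hv', hZv', hAv'⟩ :=
    exists_common_eigen z.mulVecLin a.mulVecLin hA3 hZA l hl v hv hZv
  obtain ⟨v0, hv0, hZv0, hAv0⟩ :=
    exists_fixed_eigen z.mulVecLin a.mulVecLin b.mulVecLin hB3 hAB hZB l hl al hal v' hv' hZv' hAv'
  have hBinj : ∀ x, b.mulVecLin x = 0 → x = 0 := by
    intro x hx
    have h := hB3 x
    rw [hx, map_zero, map_zero] at h
    exact h.symm
  obtain ⟨e1, e2, e3, e4, hli⟩ :=
    frame_data z.mulVecLin a.mulVecLin b.mulVecLin hAB hZB l hl hl1 v0 hv0 hZv0 hAv0 hBinj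
  simp only [Matrix.mulVecLin_apply] at e1 e2 e3 e4 hli hZv0 hAv0
  have hB3' := hB3 v0
  simp only [Matrix.mulVecLin_apply] at hB3'
  obtain ⟨g, hgdef⟩ : ∃ g : Matrix (Fin 3) (Fin 3) F,
      g = Matrix.of (fun i j => ![v0, b.mulVec v0, b.mulVec (b.mulVec v0)] j i) := ⟨_, rfl⟩
  have hg : IsUnit g := by
    rw [← Matrix.linearIndependent_cols_iff_isUnit]
    have : g.col = ![v0, b.mulVec v0, b.mulVec (b.mulVec v0)] := by
      funext j i
      rw [hgdef]
      rfl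
    rw [this]
    exact hli
  have hc0 : ∀ (m : Matrix (Fin 3) (Fin 3) F) (i : Fin 3), (m * g) i 0 = (m.mulVec v0) i := by
    intro m i; rw [hgdef]; rfl
  have hc1 : ∀ (m : Matrix (Fin 3) (Fin 3) F) (i : Fin 3),
      (m * g) i 1 = (m.mulVec (b.mulVec v0)) i := by
    intro m i; rw [hgdef]; rfl
  have hc2 : ∀ (m : Matrix (Fin 3) (Fin 3) F) (i : Fin 3),
      (m * g) i 2 = (m.mulVec (b.mulVec (b.mulVec v0))) i := by
    intro m i; rw [hgdef]; rfl
  have g0 : ∀ i, g i 0 = v0 i := by intro i; rw [hgdef]; rfl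
  have g1 : ∀ i, g i 1 = (b.mulVec v0) i := by intro i; rw [hgdef]; rfl
  have g2 : ∀ i, g i 2 = (b.mulVec (b.mulVec v0)) i := by intro i; rw [hgdef]; rfl
  refine ⟨l, g, hl, hl1, hg, ?_, ?_, ?_⟩
  · ext i j
    rw [diagA, Matrix.mul_diagonal]
    fin_cases j
    · show (a * g) i 0 = g i 0 * 1
      rw [hc0, hAv0, g0, mul_one]
    · show (a * g) i 1 = g i 1 * l
      rw [hc1, e1, g1, Pi.smul_apply, smul_eq_mul, mul_comm]
    · show (a * g) i 2 = g i 2 * l ^ 2
      rw [hc2, e2, g2, Pi.smul_apply, smul_eq_mul, mul_comm]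
  · have hs0 : ∀ i, (g * (shiftB : Matrix (Fin 3) (Fin 3) F)) i 0 = g i 1 := by
      intro i; rw [Matrix.mul_apply, Fin.sum_univ_three]; simp [shiftB]
    have hs1 : ∀ i, (g * (shiftB : Matrix (Fin 3) (Fin 3) F)) i 1 = g i 2 := by
      intro i; rw [Matrix.mul_apply, Fin.sum_univ_three]; simp [shiftB]
    have hs2 : ∀ i, (g * (shiftB : Matrix (Fin 3) (Fin 3) F)) i 2 = g i 0 := by
      intro i; rw [Matrix.mul_apply, Fin.sum_univ_three]; simp [shiftB]
    ext i j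
    fin_cases j
    · show (b * g) i 0 = (g * (shiftB : Matrix (Fin 3) (Fin 3) F)) i 0
      rw [hc0, hs0, g1]
    · show (b * g) i 1 = (g * (shiftB : Matrix (Fin 3) (Fin 3) F)) i 1
      rw [hc1, hs1, g2]
    · show (b * g) i 2 = (g * (shiftB : Matrix (Fin 3) (Fin 3) F)) i 2
      rw [hc2, hs2, hB3', g0]
  · apply hg.mul_left_injective
    show z * g = l • (1 : Matrix (Fin 3) (Fin 3) F) * g
    rw [Matrix.smul_mul, one_mul]
    ext i j
    rw [Matrix.smul_apply, smul_eq_mul]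
    fin_cases j
    · show (z * g) i 0 = l * g i 0
      rw [hc0, hZv0, g0, Pi.smul_apply, smul_eq_mul]
    · show (z * g) i 1 = l * g i 1
      rw [hc1, e3, g1, Pi.smul_apply, smul_eq_mul]
    · show (z * g) i 2 = l * g i 2
      rw [hc2, e4, g2, Pi.smul_apply, smul_eq_mul]

end Mat

end Cfsg.Agent.Lib.Helper83.X27
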