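import Cfsg.Agent.Lib.Helper83.X27.Std

set_option autoImplicit false
open scoped MatrixGroups

namespace Cfsg.Agent.Lib.Helper83.X27

open Cfsg.Agent.Lib.Helper48.X27

universe u

section

variable {F : Type u} [Field F]

/-- `M` conjugates the standard set `{w^k • (A^i * B^j)}` into itself -/
def NormStd (w : F) (M : Matrix (Fin 3) (Fin 3) F) : Prop :=
  ∀ Y, InStd w Y → ∃ Y', InStd w Y' ∧ M * Y = Y' * M

theorem normStd_mul (w : F) {M N : Matrix (Fin 3) (Fin 3) F} (hM : NormStd w M)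
    (hN : NormStd w N) : NormStd w (M * N) := by
  intro Y hY
  obtain ⟨Y1, hY1, e1⟩ := hN Y hY
  obtain ⟨Y2, hY2, e2⟩ := hM Y1 hY1
  exact ⟨Y2, hY2, by rw [mul_assoc, e1, ← mul_assoc, e2, mul_assoc]⟩

theorem normStd_smul (w s : F) {M : Matrix (Fin 3) (Fin 3) F} (hM : NormStd w M) :
    NormStd w (s • M) := by
  intro Y hY
  obtain ⟨Y1, hY1, e1⟩ := hM Y hY
  exact ⟨Y1, hY1, by rw [Matrix.smul_mul, e1, Matrix.mul_smul]⟩

theorem inStd_pow (w : F) (hw : w ^ 3 = 1) {M : Matrix (Fin 3) (Fin 3) F} (hM : InStd w M)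
    (n : ℕ) : InStd w (M ^ n) := by
  induction n with
  | zero => rw [pow_zero]; exact inStd_one w
  | succ n ih => rw [pow_succ]; exact inStd_mul w hw ih hM

theorem inStd_smul (w : F) {M : Matrix (Fin 3) (Fin 3) F} (hM : InStd w M) (k : ℕ) :
    InStd w (w ^ k • M) := by
  obtain ⟨i, j, k', rfl⟩ := hM
  exact ⟨i, j, k + k', by rw [smul_smul, pow_add]⟩

theorem normStd_of_gen (w : F) (hw : w ^ 3 = 1) (M A' B' : Matrix (Fin 3) (Fin 3) F)
    (hA' : InStd w A') (hB' : InStd w B') (hA : M * matA w = A' * M)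
    (hB : M * matB = B' * M) : NormStd w M := by
  have hAi : ∀ i : ℕ, M * matA w ^ i = A' ^ i * M := by
    intro i
    induction i with
    | zero => simp
    | succ n ih => rw [pow_succ, ← mul_assoc, ih, mul_assoc, hA, ← mul_assoc, ← pow_succ]
  have hBj : ∀ j : ℕ, M * matB ^ j = B' ^ j * M := by
    intro j
    induction j with
    | zero => simp
    | succ n ih => rw [pow_succ, ← mul_assoc, ih, mul_assoc, hB, ← mul_assoc, ← pow_succ]
  intro Y hY
  obtain ⟨i, j, k, rfl⟩ := hY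
  refine ⟨w ^ k • (A' ^ i * B' ^ j),
    inStd_smul w (inStd_mul w hw (inStd_pow w hw hA' i) (inStd_pow w hw hB' j)) k, ?_⟩
  rw [Matrix.mul_smul, Matrix.smul_mul, ← mul_assoc, hAi, mul_assoc, hBj, ← mul_assoc]

theorem inStd_matA (w : F) : InStd w (matA w) := ⟨1, 0, 0, by simp⟩

theorem inStd_matB (w : F) : InStd w (matB : Matrix (Fin 3) (Fin 3) F) := ⟨0, 1, 0, by simp⟩

theorem normStd_negP (w : F) (hw : w ^ 3 = 1) : NormStd w (negP : Matrix (Fin 3) (Fin 3) F) := by
  refine normStd_of_gen w hw negP (matA w ^ 2) (matB ^ 2) (inStd_pow w hw (inStd_matA w) 2)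
    (inStd_pow w hw (inStd_matB w) 2) ?_ ?_
  · ext i j; fin_cases i <;> fin_cases j <;>
      simp [matA, negP, pow_two, Matrix.mul_apply, Fin.sum_univ_three] <;>
      linear_combination (-w) * hw
  · ext i j; fin_cases i <;> fin_cases j <;>
      simp [matB, negP, pow_two, Matrix.mul_apply, Fin.sum_univ_three]

theorem normStd_matA (w : F) (hw : w ^ 3 = 1) : NormStd w (matA w) := by
  refine normStd_of_gen w hw (matA w) (matA w) (w ^ 1 • matB) (inStd_matA w)
    (inStd_smul w (inStd_matB w) 1) rfl ?_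
  rw [pow_one, Matrix.smul_mul, matB_mul_matA w hw, smul_smul]
  have h : w * w ^ 2 = 1 := by linear_combination hw
  rw [h, one_smul]

theorem normStd_matD (w : F) (hw : w ^ 3 = 1) : NormStd w (matD w) := by
  refine normStd_of_gen w hw (matD w) (matA w) (w ^ 2 • (matA w * matB)) (inStd_matA w)
    (inStd_smul w (inStd_mul w hw (inStd_matA w) (inStd_matB w)) 2) ?_ ?_
  · ext i j; fin_cases i <;> fin_cases j <;>
      simp [matA, matD, Matrix.mul_apply, Fin.sum_univ_three, mul_comm]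
  · ext i j; fin_cases i <;> fin_cases j <;>
      simp [matA, matB, matD, Matrix.mul_apply, Fin.sum_univ_three] <;>
      first
      | linear_combination (-1 : F) * hw
      | linear_combination (-w) * hw

end

theorem pkgNorm : PkgNorm.{u} := by
  intro F _ R h ω hstd hR m hm
  obtain ⟨hω1, hω3, hmem⟩ := hstd
  have hN : NormStd ω (m : Matrix (Fin 3) (Fin 3) F) := by
    obtain ⟨s, hs | hs | hs | hs⟩ := hm
    · rw [hs]; exact normStd_smul ω s (normStd_negP ω hω3)
    · rw [hs]; exact normStd_smul ω s (normStd_matA ω hω3)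
    · rw [hs]; exact normStd_smul ω s (normStd_matD ω hω3)
    · rw [hs]; exact normStd_smul ω s (normStd_mul ω (normStd_matD ω hω3) (normStd_matD ω hω3))
  haveI : Finite R := Nat.finite_of_card_ne_zero (by rw [hR]; norm_num)
  haveI : Finite (R : Set (GL (Fin 3) F)) := ‹Finite R›
  show h * m * h⁻¹ ∈ Subgroup.normalizer (R : Set (GL (Fin 3) F))
  apply Subgroup.mem_normalizer_fintype
  intro y hy
  obtain ⟨i, j, k, hijk⟩ := (hmem y).mp hy
  obtain ⟨Y', hY', e⟩ := hN _ ⟨i, j, k, hijk⟩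
  obtain ⟨i', j', k', rfl⟩ := hY'
  rw [SetLike.mem_coe, hmem]
  refine ⟨i', j', k', ?_⟩
  have e1 : h⁻¹ * (h * m * h⁻¹ * y * (h * m * h⁻¹)⁻¹) * h = m * (h⁻¹ * y * h) * m⁻¹ := by group
  rw [e1, Units.val_mul, Units.val_mul, e, mul_assoc, ← Units.val_mul, mul_inv_cancel,
    Units.val_one, mul_one]

end Cfsg.Agent.Lib.Helper83.X27
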