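import Cfsg.Agent.Lib.Helper48.X27.Defs
import Cfsg.Agent.Lib.Helper83.X27.Frame27

set_option autoImplicit false
open scoped MatrixGroups

namespace Cfsg.Agent.Lib.Helper83.X27

open Cfsg.Agent.Lib.Helper48.X27

universe u

section

variable {F : Type u} [Field F]

theorem diagA_eq_matA (w : F) : diagA w = matA w := by
  ext i j; fin_cases i <;> fin_cases j <;> simp [diagA, matA]

theorem shiftB_eq_matB : (shiftB : Matrix (Fin 3) (Fin 3) F) = matB := rfl

theorem matB_mul_matA (w : F) (hw : w ^ 3 = 1) : matB * matA w = w ^ 2 • (matA w * matB) := by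
  have h4 : w ^ 2 * w = 1 := by rw [← hw]; ring
  ext i j; fin_cases i <;> fin_cases j <;>
    simp [matA, matB, Matrix.mul_apply, Fin.sum_univ_three, h4] <;>
    linear_combination (-w) * hw

theorem matB_mul_matA_pow (w : F) (hw : w ^ 3 = 1) (i : ℕ) :
    matB * matA w ^ i = w ^ (2 * i) • (matA w ^ i * matB) := by
  induction i with
  | zero => simp
  | succ n ih =>
    rw [pow_succ, ← mul_assoc, ih, Matrix.smul_mul, mul_assoc, matB_mul_matA w hw,
      Matrix.mul_smul, smul_smul, ← mul_assoc, ← pow_succ]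
    congr 1
    ring

theorem matB_pow_mul_matA_pow (w : F) (hw : w ^ 3 = 1) (i j : ℕ) :
    matB ^ j * matA w ^ i = w ^ (2 * i * j) • (matA w ^ i * matB ^ j) := by
  induction j with
  | zero => simp
  | succ n ih =>
    rw [pow_succ', mul_assoc, ih, Matrix.mul_smul, ← mul_assoc, matB_mul_matA_pow w hw,
      Matrix.smul_mul, smul_smul, mul_assoc (matA w ^ i)]
    congr 1
    ring

/-- the standard set `{w^k • (A^i * B^j)}` -/
def InStd (w : F) (M : Matrix (Fin 3) (Fin 3) F) : Prop :=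
  ∃ i j k : ℕ, M = w ^ k • (matA w ^ i * matB ^ j)

theorem inStd_one (w : F) : InStd w 1 := ⟨0, 0, 0, by simp⟩

theorem inStd_mul (w : F) (hw : w ^ 3 = 1) {M N : Matrix (Fin 3) (Fin 3) F}
    (hM : InStd w M) (hN : InStd w N) : InStd w (M * N) := by
  obtain ⟨i, j, k, rfl⟩ := hM
  obtain ⟨i', j', k', rfl⟩ := hN
  refine ⟨i + i', j + j', k + k' + 2 * i' * j, ?_⟩
  have key : matA w ^ i * matB ^ j * (matA w ^ i' * matB ^ j') =
      w ^ (2 * i' * j) • (matA w ^ (i + i') * matB ^ (j + j')) := by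
    calc matA w ^ i * matB ^ j * (matA w ^ i' * matB ^ j')
        = matA w ^ i * (matB ^ j * matA w ^ i') * matB ^ j' := by simp only [mul_assoc]
      _ = matA w ^ i * (w ^ (2 * i' * j) • (matA w ^ i' * matB ^ j)) * matB ^ j' := by
          rw [matB_pow_mul_matA_pow w hw]
      _ = w ^ (2 * i' * j) • (matA w ^ (i + i') * matB ^ (j + j')) := by
          rw [Matrix.mul_smul, Matrix.smul_mul, pow_add, pow_add]
          simp only [mul_assoc]
  rw [Matrix.smul_mul, Matrix.mul_smul, key, smul_smul, smul_smul]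
  congr 1
  ring

end

theorem pkgStd : PkgStd.{u} := by
  intro F _ ω₀ hω₀1 hω₀3 R hR hRe hRna
  have hw : ω₀ ^ 2 + ω₀ + 1 = 0 := by
    have h : (ω₀ - 1) * (ω₀ ^ 2 + ω₀ + 1) = 0 := by linear_combination hω₀3
    rcases mul_eq_zero.mp h with h | h
    · exact (hω₀1 (sub_eq_zero.mp h)).elim
    · exact h
  obtain ⟨l, g, a, b, hl, hl1, haR, hbR, hcl, hag, hbg, hz⟩ :=
    frame27 R hR hRe hRna ω₀ hw hω₀1
  have hl3 : l ^ 3 = 1 := by linear_combination (l - 1) * hl
  rw [diagA_eq_matA] at hag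
  rw [shiftB_eq_matB] at hbg
  obtain ⟨ψ, hψ⟩ : ∃ ψ : GL (Fin 3) F →* Matrix (Fin 3) (Fin 3) F,
      ∀ y, ψ y = ((g⁻¹ * y * g : GL (Fin 3) F) : Matrix (Fin 3) (Fin 3) F) :=
    ⟨{ toFun := fun y => ((g⁻¹ * y * g : GL (Fin 3) F) : Matrix (Fin 3) (Fin 3) F)
       map_one' := by simp
       map_mul' := by
         intro x y
         rw [← Units.val_mul]
         congr 1
         group }, fun _ => rfl⟩
  have hψinj : Function.Injective ψ := by
    intro x y h
    rw [hψ, hψ] at h
    have h' : g⁻¹ * x * g = g⁻¹ * y * g := Units.ext h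
    exact mul_left_cancel (mul_right_cancel h')
  have hψa : ψ a = matA l := by
    rw [hψ, Units.val_mul, Units.val_mul, mul_assoc, hag, ← mul_assoc, ← Units.val_mul,
      inv_mul_cancel, Units.val_one, one_mul]
  have hψb : ψ b = matB := by
    rw [hψ, Units.val_mul, Units.val_mul, mul_assoc, hbg, ← mul_assoc, ← Units.val_mul,
      inv_mul_cancel, Units.val_one, one_mul]
  have hψz : ψ (a * b * a⁻¹ * b⁻¹) = l • (1 : Matrix (Fin 3) (Fin 3) F) := by
    rw [hψ, Units.val_mul, Units.val_mul, hz, Matrix.mul_smul, Matrix.smul_mul, mul_one,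
      ← Units.val_mul, inv_mul_cancel, Units.val_one]
  have hzR : a * b * a⁻¹ * b⁻¹ ∈ R :=
    R.mul_mem (R.mul_mem (R.mul_mem haR hbR) (R.inv_mem haR)) (R.inv_mem hbR)
  refine ⟨g, l, hl1, hl3, ?_⟩
  intro y
  rw [← hψ]
  constructor
  · intro hy
    rw [← hcl] at hy
    have hcl' : ∀ x ∈ Subgroup.closure {a, b}, x⁻¹ = x * x := by
      intro x hx
      rw [hcl] at hx
      have h := Monoid.pow_exponent_eq_one (⟨x, hx⟩ : R)
      rw [hRe] at h
      have h' : x ^ 3 = 1 := congrArg Subtype.val h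
      apply inv_eq_of_mul_eq_one_right
      rw [← h', pow_three]
    refine Subgroup.closure_induction (p := fun x _ => InStd l (ψ x)) ?_ ?_ ?_ ?_ hy
    · intro x hx
      rcases hx with rfl | hx
      · exact ⟨1, 0, 0, by rw [hψa]; simp⟩
      · rw [Set.mem_singleton_iff] at hx
        rw [hx]
        exact ⟨0, 1, 0, by rw [hψb]; simp⟩
    · rw [map_one]; exact inStd_one l
    · intro x x' _ _ hx hx'
      rw [map_mul]; exact inStd_mul l hl3 hx hx'
    · intro x hx hpx
      rw [hcl' x hx, map_mul]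
      exact inStd_mul l hl3 hpx hpx
  · rintro ⟨i, j, k, hijk⟩
    have h : ψ y = ψ ((a * b * a⁻¹ * b⁻¹) ^ k * a ^ i * b ^ j) := by
      rw [map_mul, map_mul, map_pow, map_pow, map_pow, hψz, hψa, hψb, hijk, smul_pow, one_pow,
        Matrix.smul_mul, Matrix.smul_mul, one_mul]
    rw [hψinj h]
    exact R.mul_mem (R.mul_mem (R.pow_mem hzR k) (R.pow_mem haR i)) (R.pow_mem hbR j)

end Cfsg.Agent.Lib.Helper83.X27
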